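import Cfsg.Agent.L.X0

/-! Traces on the six-dimensional part, and the exclusion of the involution `diag(1,1,1,-1,-1)`. -/

set_option autoImplicit false
set_option linter.unusedSimpArgs false
set_option linter.unusedSectionVars false
set_option linter.unusedVariables false

namespace Cfsg.Agent.L.X11

open Matrix Cfsg.Agent.H5.C11

theorem even_idem {K : Type*} [Field K] (h2 : (2 : K) ≠ 0) {n : Type*} [Fintype n] [DecidableEq n]
    {P Z W : Matrix n n K} (hZ : P * Z = Z * P) (hW : P * W = W * P) (z2 : Z * Z = -1) (w2 : W * W = -1)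
    (zw : Z * W = -(W * Z)) : Even P.rank := by
  let V := LinearMap.range P.mulVecLin
  have inv : ∀ {A : Matrix n n K}, P * A = A * P → ∀ v ∈ V, toLin' A v ∈ V := fun {A} e => by
    rintro _ ⟨v, rfl⟩
    exact ⟨A *ᵥ v, by simp [mulVec_mulVec, e]⟩
  let a := (toLin' Z).restrict (inv hZ)
  let b := (toLin' W).restrict (inv hW)
  have a2 : a * a = -1 := by ext v i; simp [a, mulVec_mulVec, z2, neg_mulVec]
  have b2 : b * b = -1 := by ext v i; simp [b, mulVec_mulVec, w2, neg_mulVec]
  have ab : a * b = (-1 : K) • (b * a) := by ext v i; simp [a, b, mulVec_mulVec, zw, neg_mulVec]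
  have d : ∀ c : Module.End K V, c * c = -1 → LinearMap.det c ≠ 0 := fun c e e0 => by
    have := congrArg LinearMap.det e
    rw [map_mul, e0, mul_zero, ← neg_one_smul K (1 : Module.End K V), LinearMap.det_smul, map_one,
      mul_one] at this
    exact absurd this.symm (pow_ne_zero _ (by simp))
  have := congrArg LinearMap.det ab
  rw [LinearMap.det_smul, map_mul, map_mul, mul_comm (LinearMap.det b)] at this
  have e : (-1 : K) ^ Module.finrank K V = 1 :=
    mul_right_cancel₀ (mul_ne_zero (d a a2) (d b b2)) (by rw [← this, one_mul])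
  exact (neg_one_pow_eq_one_iff_even fun k => h2 (by linear_combination -k)).1 e

theorem idem_trace {K : Type*} [Field K] {n : Type*} [Fintype n] [DecidableEq n] {P : Matrix n n K}
    (hP : P * P = P) : P.trace = P.rank := by
  have : LinearMap.IsProj (LinearMap.range (toLin' P)) (toLin' P) :=
    ⟨fun v => ⟨v, rfl⟩, by rintro _ ⟨v, rfl⟩; simp [mulVec_mulVec, hP]⟩
  rw [← Matrix.trace_toLin'_eq, this.trace]; rfl

theorem tr_aux {K : Type*} [Field K] (h2 : (2 : K) ≠ 0) {A Z W : Matrix (Fin 6) (Fin 6) K} {e : K}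
    (e0 : e ≠ 0) (hA : A * A = (e * e) • 1) (hZ : A * Z = Z * A) (hW : A * W = W * A) (z2 : Z * Z = -1)
    (w2 : W * W = -1) (zw : Z * W = -(W * Z)) (t : A.trace = 0) : A = e • 1 ∨ A = (-e) • 1 := by
  let P : Matrix (Fin 6) (Fin 6) K := (2⁻¹ : K) • (1 + e⁻¹ • A)
  have hP : P * P = P := by
    simp only [P, smul_mul_assoc, mul_smul_comm, add_mul, mul_add, one_mul, mul_one, hA, smul_smul]
    match_scalars <;> field_simp <;> ring
  have ev := even_idem h2 (P := P) (Z := Z) (W := W) (by simp [P, add_mul, mul_add, hZ])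
    (by simp [P, add_mul, mul_add, hW]) z2 w2 zw
  have tp := idem_trace hP
  have t3 : P.trace = 3 := by simp [P, t]; field_simp; norm_num
  have le := P.rank_le_card_width
  rw [t3] at tp
  simp only [Fintype.card_fin] at le
  have AP : A = e • ((2 : K) • P - 1) := by
    simp only [P, smul_smul]; match_scalars <;> field_simp <;> ring
  obtain ⟨m, hm⟩ := ev
  have : P.rank = 0 ∨ P.rank = 2 ∨ P.rank = 4 ∨ P.rank = 6 := by omega
  rcases this with k | k | k | k
  · right
    have : P = 0 := by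
      have := Submodule.finrank_eq_zero.1 k
      rw [LinearMap.range_eq_bot] at this
      exact toLin'.injective (by rw [map_zero]; exact this)
    rw [AP, this]; simp
  · rw [k] at tp; exact absurd (show (1 : K) = 0 by push_cast at tp; linear_combination tp) one_ne_zero
  · rw [k] at tp; exact absurd (show (1 : K) = 0 by push_cast at tp; linear_combination -tp) one_ne_zero
  · left
    have : P = 1 := by
      have k1 : LinearMap.range P.mulVecLin = ⊤ := Submodule.eq_top_of_finrank_eq (k.trans (by simp))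
      refine toLin'.injective (LinearMap.ext fun v => ?_)
      obtain ⟨w, rfl⟩ := k1.ge (Submodule.mem_top (x := v))
      simp [mulVec_mulVec, hP]
    rw [AP, this]; match_scalars; ring

variable {F : Type*} [Field F] {g : F}

namespace XS

variable {C : Type*} [Group C] {p : ℕ} {ω : F} {π : C →* GL (Fin 5) F} {ψ : C →* GL (Fin 6) F}
  {σ u f : C} (h : XS p ω g π ψ σ u f)
include h

theorem ψf : (ψ f).1 * (ψ f).1 = -1 := by rw [← Units.val_mul, ← map_mul, h.ff, h.ψσ]
theorem ψz2 : (ψ (z2 u f)).1 * (ψ (z2 u f)).1 = -1 := by rw [← Units.val_mul, ← map_mul, h.z2z2, h.ψσ]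
theorem ψfz : (ψ f).1 * (ψ (z2 u f)).1 = -((ψ (z2 u f)).1 * (ψ f).1) := by
  rw [← Units.val_mul, ← map_mul, h.e12, map_mul, map_mul, Units.val_mul, Units.val_mul, h.ψσ]; simp

theorem tr {c : C} (hc : InY u f c) (c2 : c * c = 1 ∨ c * c = σ) (hs : ∀ b : F, (π c).1 ≠ b • 1) :
    (ψ c).1.trace ≠ 0 := fun t => by
  let K := AlgebraicClosure F
  let φ : Matrix (Fin 6) (Fin 6) F →+* Matrix (Fin 6) (Fin 6) K := (algebraMap F K).mapMatrix
  have k2 : (2 : K) ≠ 0 := by
    rw [← map_ofNat (algebraMap F K) 2]; exact (map_ne_zero _).2 h.fh.two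
  obtain ⟨e, e0, he⟩ : ∃ e : K, e ≠ 0 ∧ φ (ψ c).1 * φ (ψ c).1 = (e * e) • 1 := by
    rw [← map_mul, ← Units.val_mul, ← map_mul]
    rcases c2 with k | k
    · exact ⟨1, one_ne_zero, by simp [k]⟩
    · obtain ⟨e, he⟩ := IsAlgClosed.exists_eq_mul_self (-1 : K)
      exact ⟨e, by rintro rfl; simp at he, by rw [k, h.ψσ, ← he]; simp⟩
  have cm : ∀ z : C, c * z = z * c → φ (ψ c).1 * φ (ψ z).1 = φ (ψ z).1 * φ (ψ c).1 := fun z e => by
    rw [← map_mul, ← Units.val_mul, ← map_mul, e, map_mul, Units.val_mul, map_mul]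
  have := tr_aux k2 e0 he (cm _ hc.1) (cm _ hc.2) (by rw [← map_mul, h.ψf]; simp)
    (by rw [← map_mul, h.ψz2]; simp) (by rw [← map_mul, h.ψfz]; simp)
    (by rw [show (φ (ψ c).1).trace = algebraMap F K (ψ c).1.trace by simp [φ, Matrix.trace], t, map_zero])
  obtain ⟨a, ha⟩ : ∃ a : K, φ (ψ c).1 = a • 1 := this.elim (fun k => ⟨_, k⟩) fun k => ⟨_, k⟩
  obtain ⟨b, hb⟩ := h.kerV c ((ψ c).1 0 0) (by
    ext i j
    apply (algebraMap F K).injective
    have e1 := congrFun (congrFun ha i) j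
    have e2 := congrFun (congrFun ha 0) 0
    simp [φ] at e1 e2
    rw [e1, ← e2]; simp [one_apply, apply_ite (algebraMap F K)])
  exact hs b hb

theorem trσ (a : C) : (ψ (σ * a)).1.trace = -(ψ a).1.trace := by
  rw [map_mul, Units.val_mul, h.ψσ]; simp

omit h in
theorem tr_conj (a w : C) : (ψ (w * a * w⁻¹)).1.trace = (ψ a).1.trace := by
  rw [map_mul, map_mul, map_inv, Units.val_mul, Units.val_mul, trace_mul_comm, ← Matrix.mul_assoc]; simp

theorem same {a b : C} (ta : (ψ a).1.trace ≠ 0) (e : (ψ a).1.trace = (ψ b).1.trace) (k : π a = π b) :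
    a = b := (h.ker2 k).resolve_right fun k => by
  have := h.trσ b
  rw [← k, ← e] at this
  exact mul_ne_zero h.fh.two ta (by linear_combination this)

theorem comm {a b : C} (ta : (ψ a).1.trace ≠ 0) (k : π (a * b) = π (b * a)) : a * b = b * a := by
  have := h.same ta (tr_conj a b).symm (show π a = π (b * a * b⁻¹) by
    rw [map_mul π (b * a), ← k, map_inv, map_mul, mul_inv_cancel_right])
  exact eq_mul_inv_iff_mul_eq.1 this

theorem πnegσ {a : C} (c2 : a * a = 1 ∨ a * a = σ) (w : C) : (w * a * w⁻¹) * (w * a * w⁻¹) = a * a := by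
  rw [conj_mul]; rcases c2 with k | k <;> rw [k]
  · simp
  · exact h.cjσ w

/-- a version of `Rp` up to a scalar -/
theorem alphaY {k : C} (hk : InY u f k) {s : F} (s2 : s * s = 1) (e : (π k).1 = s • RZ.map (ev h.hg)) :
    False := by
  have h2 := h.fh.two
  have s0 : s ≠ 0 := by rintro rfl; simp at s2
  let S : GL (Fin 5) F := ⟨s • 1, s • 1, by simp [smul_smul, s2], by simp [smul_smul, s2]⟩
  have Sc : ∀ A, A * S = S * A := fun A => Units.ext (by simp [S])
  have SS : S * S = 1 := Units.ext (by simp [S, smul_smul, s2])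
  have r : Rp h.hg (S * π k) 0 RZ := Rp.zero.2 (by simp [S, e, smul_smul, s2])
  have rr : Rp h.hg (S * π k * (S * π k)) 0 1 := (r.mul r).congr (by decide +kernel)
  have c2 : k * k = 1 ∨ k * k = σ := h.kerU _ (by
    rw [map_mul, ← Rp.eq h2 rr (Rp.one _), mul_assoc, ← mul_assoc (π k), Sc, ← mul_assoc, ← mul_assoc, SS,
      one_mul])
  have kk : π k * π k = 1 := by rcases c2 with e | e <;> rw [← map_mul, e] <;> simp [h.πσ]
  have t := h.tr hk c2 fun b hb => by
    rw [e] at hb
    have e1 := congrFun (congrFun hb 0) 0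
    have e2 := congrFun (congrFun hb 3) 3
    simp [RZ] at e1 e2
    exact mul_ne_zero h2 s0 (by linear_combination e1 - e2)
  let a := k * g5 u f * k * (k * g5 u f)⁻¹
  have ta : (ψ a).1.trace ≠ 0 := by rwa [tr_conj]
  have a2 : a * a = k * k := h.πnegσ c2 _
  have ra : Rp h.hg (S * π a) 6 (RZ * g8 * RZ * G8 * RZ) := by
    have := (((r.mul h.r_g5).mul r).mul h.r_G).mul r
    rwa [show S * π k * π (g5 u f) * (S * π k) * (π (g5 u f))⁻¹ * (S * π k) = S * π a by
      simp only [a, map_mul, map_inv, _root_.mul_inv_rev, inv_eq_of_mul_eq_one_right kk, mul_assoc]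
      rw [← mul_assoc (π (g5 u f))⁻¹, Sc, mul_assoc, ← mul_assoc (π k) S, Sc, mul_assoc,
        ← mul_assoc S S, SS, one_mul]] at this
  clear_value a
  have c1 : a * za u f = za u f * a := h.comm ta (by
    have := Rp.eq h2 ((ra.mul h.r_za).congr (Y := za8 * (RZ * g8 * RZ * G8 * RZ)) (by decide +kernel))
      (show Rp _ _ (6 + 3) _ from h.r_za.mul ra)
    rw [← mul_assoc, Sc, mul_assoc, mul_assoc, mul_right_inj] at this
    rw [map_mul, map_mul, this])
  have c3 : π (za u f * a) = π (ga u f * a * (ga u f)⁻¹) := by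
    have := Rp.eq h2 (h.r_za.mul ra) (Rp.step h2 (j := 3) (h.r_ga.mul ra) h.r_Ga rfl (by decide +kernel))
    rw [← mul_assoc, ← mul_assoc, Sc, Sc, mul_assoc, mul_assoc, mul_assoc, mul_right_inj] at this
    rw [map_mul, map_mul, map_mul, map_inv, this, mul_assoc]
  have q1 : za u f * a * (za u f * a) = σ * (k * k) := by
    rw [mul_assoc, ← mul_assoc a, c1, ← mul_assoc, ← mul_assoc, h.zaza, mul_assoc, a2]
  have q2 := h.πnegσ (a := a) (a2 ▸ c2) (ga u f)
  rcases h.ker2 c3 with e | e <;> rw [e] at q1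
  · rw [q2, a2] at q1; exact h.σ1 (by simpa using q1.symm)
  · rw [h.sqσ, q2, a2] at q1; exact h.σ1 (by simpa using q1.symm)

theorem cm_of {c a q : C} (e : π a = π q) (k : c * q = q * c) : c * a = a * c := by
  rcases h.ker2 e with rfl | rfl
  · exact k
  · rw [← mul_assoc, h.cen, mul_assoc, k, mul_assoc]

omit h in
theorem Ymul {a b : C} (ha : InY u f a) (hb : InY u f b) : InY u f (a * b) :=
  ⟨(show Commute _ _ from ha.1).mul_left hb.1, (show Commute _ _ from ha.2).mul_left hb.2⟩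

omit h in
theorem Yinv {a : C} (ha : InY u f a) : InY u f a⁻¹ :=
  ⟨(show Commute _ _ from ha.1).inv_left, (show Commute _ _ from ha.2).inv_left⟩

omit h in
theorem Ypow {a : C} (ha : InY u f a) (n : ℕ) : InY u f (a ^ n) :=
  ⟨(show Commute _ _ from ha.1).pow_left n, (show Commute _ _ from ha.2).pow_left n⟩

omit h in
theorem Yfz {a : C} (ha : InY u f a) : a * (f * z2 u f) = f * z2 u f * a :=
  (show Commute _ _ from ha.1).mul_right ha.2

omit h in
theorem conj_comm {c w a : C} (e : c * (w⁻¹ * a * w) = w⁻¹ * a * w * c) : w * c * w⁻¹ * a = a * (w * c * w⁻¹) := by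
  have := congrArg (fun x => w * x * w⁻¹) e
  simpa only [mul_assoc, mul_inv_cancel_left, mul_inv_cancel, mul_one] using this

theorem Yy {c : C} (hc : InY u f c) : InY u f (yy u f * c * (yy u f)⁻¹) := by
  refine ⟨conj_comm (h.cm_of ?_ (Yfz hc)), conj_comm (h.cm_of ?_ hc.1)⟩
  · rw [map_mul, map_mul, map_inv, map_mul]
    exact Rp.eq h.fh.two (((h.r_Y.mul h.hf).mul h.r_yy).congr (by decide +kernel)) (h.hf.mul h.r_z2)
  · rw [map_mul, map_mul, map_inv]
    exact Rp.eq h.fh.two (((h.r_Y.mul h.r_z2).mul h.r_yy).congr (by decide +kernel)) h.hf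

theorem YY {c : C} (hc : InY u f c) : InY u f ((yy u f)⁻¹ * c * yy u f) := by
  have := fun a => conj_comm (c := c) (w := (yy u f)⁻¹) (a := a)
  simp only [inv_inv] at this
  exact ⟨this _ (h.cm_of h.y_f hc.2), this _ (h.cm_of h.y_z2 (Yfz hc))⟩

theorem alphaQ {k : C} (hk : InY u f k) {s : F} (s2 : s * s = 1) {X : MZ}
    (e : (π k).1 = s • X.map (ev h.hg)) (d : X * (yZ * X * YZ) * (YZ * X * yZ) = RZ) : False := by
  refine h.alphaY (Ymul (Ymul hk (h.Yy hk)) (h.YY hk)) s2 ?_
  simp only [map_mul, map_inv, Units.val_mul, e, Rp.zero.1 h.r_yy, Rp.zero.1 h.r_Y, ← d, Matrix.map_mul,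
    smul_mul_assoc, mul_smul_comm, smul_smul, s2, mul_one, one_mul]

/-- no element induces `± diag(1,1,1,-1,-1)` -/
theorem alpha (k : C) (s : F) (s2 : s * s = 1) : (π k).1 ≠ s • RZ.map (ev h.hg) := fun e => by
  have cm : ∀ {q : C} {X : MZ}, Rp h.hg (π q) 0 X → RZ * X = X * RZ → k * q = q * k ∨ k * q = σ * (q * k) :=
    fun {q X} r d => h.ker2 (Units.ext (by
      simp only [map_mul, Units.val_mul, e, Rp.zero.1 r, smul_mul_assoc, mul_smul_comm, ← Matrix.map_mul, d]))
  have ex : ∀ {q : C} {X : MZ}, Rp h.hg (π q) 0 X → (π (k * q)).1 = s • (RZ * X).map (ev h.hg) :=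
    fun {q X} r => by simp only [map_mul, Units.val_mul, e, Rp.zero.1 r, smul_mul_assoc, Matrix.map_mul]
  have e12 := h.e12
  have e21 : z2 u f * f = σ * (f * z2 u f) := by rw [e12, ← mul_assoc, ← mul_assoc, h.σ2, one_mul]
  have cen : ∀ a b : C, a * (σ * b) = σ * (a * b) := fun a b => by rw [← mul_assoc, h.cen, mul_assoc]
  have σσ : ∀ b : C, σ * (σ * b) = b := fun b => by rw [← mul_assoc, h.σ2, one_mul]
  rcases cm h.hf (by decide +kernel) with a | a <;> rcases cm h.r_z2 (by decide +kernel) with b | b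
  · exact h.alphaY ⟨a, b⟩ s2 e
  · refine h.alphaQ (k := k * f) ⟨by rw [a, mul_assoc, a], ?_⟩ s2 (ex h.hf) (by decide +kernel)
    rw [mul_assoc, e12, mul_assoc, cen, ← mul_assoc k, b, mul_assoc, σσ, mul_assoc]
  · refine h.alphaQ (k := k * z2 u f) ⟨?_, by rw [b, mul_assoc, b]⟩ s2 (ex h.r_z2) (by decide +kernel)
    rw [mul_assoc, e21, cen, ← mul_assoc k, a, mul_assoc, σσ, mul_assoc]
  · refine h.alphaQ (k := k * (f * z2 u f)) ⟨?_, ?_⟩ s2 (ex (by rw [map_mul]; exact h.hf.mul h.r_z2))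
      (by decide +kernel)
    · rw [mul_assoc, mul_assoc, e21, cen, cen, ← mul_assoc k, a, mul_assoc, σσ, mul_assoc]
    · have : f * z2 u f * z2 u f = σ * (z2 u f * (f * z2 u f)) := by
        rw [← mul_assoc (z2 u f), e21, mul_assoc σ, σσ]
      rw [mul_assoc, this, cen, ← mul_assoc k, b, mul_assoc, σσ, mul_assoc]

end XS

end Cfsg.Agent.L.X11
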